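import Cfsg.Agent.H836.Facts

/-!
# `Fi22`: the class of 3-transpositions is unique (helper836)

`uniq_class` : a class of 3-transpositions of `K`, `e : K ≃* Spor.Fi22`, is `TK e`.
-/

set_option autoImplicit false

namespace Cfsg.Agent.H836.Uniq22

open Cfsg Cfsg.Agent.R01 Cfsg.Agent.KFacts.FiTT

universe v

/-- **The class of 3-transpositions of `Fi22` is unique.** -/
theorem uniq_class {K : Type v} [Group K] (e : K ≃* Spor.Fi22) {D' : Set K}
    (hD' : Cfsg.IsThreeTranspositionClass D') : D' = TK e := by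
  obtain ⟨⟨h1, h2⟩, ⟨d, hd, hc⟩, -⟩ := hD'
  have hconj : ∀ x, x ∈ D' ↔ IsConj d x := fun x => by rw [hc]; rfl
  have hdd : d * d = 1 := by rw [← pow_two, ← h1 d hd, pow_orderOf_eq_one]
  have hT : e d ∈ Fi22Facts.T := by
    refine Strong.mem_T_of_three ?_ ?_ ?_
    · rw [← map_mul, hdd, map_one]
    · intro h
      have h3 : d = 1 := by
        apply e.injective
        rw [h, map_one]
      have h4 := h1 d hd
      rw [h3, orderOf_one] at h4
      exact absurd h4 (by norm_num)
    · intro a ha b hb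
      obtain ⟨g, rfl⟩ := isConj_iff.1 (show IsConj (e d) a from ha)
      obtain ⟨k, rfl⟩ := isConj_iff.1 (show IsConj (e d) b from hb)
      obtain ⟨g, rfl⟩ := e.surjective g
      obtain ⟨k, rfl⟩ := e.surjective k
      have hg : g * d * g⁻¹ ∈ D' := (hconj _).2 (isConj_iff.2 ⟨g, rfl⟩)
      have hk : k * d * k⁻¹ ∈ D' := (hconj _).2 (isConj_iff.2 ⟨k, rfl⟩)
      rw [← map_inv, ← map_mul, ← map_mul, ← map_inv, ← map_mul, ← map_mul, ← map_mul, ← map_mul,
        ← map_pow, e.injective.eq_iff, map_eq_one_iff e e.injective]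
      rcases h2 _ hg _ hk with h | h
      · left
        have sq : ∀ x ∈ D', x⁻¹ = x := by
          intro x hx
          apply inv_eq_of_mul_eq_one_left
          rw [← pow_two, ← h1 x hx, pow_orderOf_eq_one]
        have h5 : (g * d * g⁻¹ * (k * d * k⁻¹))⁻¹ = g * d * g⁻¹ * (k * d * k⁻¹) :=
          inv_eq_of_mul_eq_one_left (by rw [← pow_two, h])
        rw [mul_inv_rev, sq _ hg, sq _ hk] at h5
        exact h5.symm
      · exact Or.inr h
  ext x
  rw [hconj]
  constructor
  · intro hx
    refine ⟨e x, ?_, e.symm_apply_apply x⟩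
    have h3 : IsConj (e d) (e x) := MonoidHom.map_isConj e.toMonoidHom hx
    exact IsConj.trans (show IsConj _ (e d) from hT) h3
  · rintro ⟨y, hy, rfl⟩
    have h3 : IsConj (e d) y := IsConj.trans (IsConj.symm (show IsConj _ (e d) from hT)) hy
    have h4 := MonoidHom.map_isConj e.symm.toMonoidHom h3
    have h5 : e.symm.toMonoidHom (e d) = d := e.symm_apply_apply d
    rw [h5] at h4
    exact h4

end Cfsg.Agent.H836.Uniq22
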